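import Cfsg.Agent.H526.ObComp
import Cfsg.Agent.GenPsu.Block

/-!
# `NB` from subnormal subgroups and from blocks (helper113)

* `NB.of_subnormal`;
* `nb_lift` : `φ : X → K` onto with central kernel, `y ∈ X` a 2-element, `e : H → X` with image centralized by `y` and
  normalized by `C_X(y)`: `NB H` implies `NB K` (no condition on `C_K(φ y)`).
-/

set_option autoImplicit false

open Cfsg

namespace Cfsg.Agent.H113.OB

open Cfsg.Agent Cfsg.Agent.H526.OB Subgroup

theorem nb_of_subnormal {G : Type*} [Group G] [Finite G] {N : Subgroup G} (h : N.IsSubnormal) (hN : NB N) : NB G := by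
  induction h with
  | top => exact NB.iso Subgroup.topEquiv hN
  | step H K hle _ hn ih =>
    refine ih ?_
    have := hn
    exact NB.of_normal (H.subgroupOf K) (NB.iso (Subgroup.subgroupOfEquivOfLe hle).symm hN)

/-- `NB` passes from a subgroup of the centralizer of a 2-element through a central quotient -/
theorem nb_lift {X H K : Type*} [Group X] [Group H] [Group K] [Finite K] (φ : X →* K)
    (hs : Function.Surjective φ) (hk : φ.ker ≤ center X) (e : H →* X) {y : X} (hy : ∃ k : ℕ, y ^ 2 ^ k = 1)
    (hz : ∀ a, e a * y = y * e a) (hn : ∀ g : X, g * y = y * g → ∀ a, ∃ b, e b = g * e a * g⁻¹)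
    (hi : Function.Injective (φ.comp e)) (hH : NB H) : NB K := by
  have hle : (φ.comp e).range ≤ centralizer ({φ y} : Set K) := by
    rintro _ ⟨a, rfl⟩
    rw [mem_centralizer_singleton_iff]
    simp only [MonoidHom.comp_apply]
    rw [← map_mul, ← map_mul, hz a]
  have h1 := Cfsg.Agent.GenPsu.subnormal_lift φ hs hk e hz hn
  refine NB.of_centralizer_singleton (φ y) ?_ (nb_of_subnormal h1 ?_)
  · obtain ⟨k, hk⟩ := hy
    exact ⟨k, by rw [← map_pow, hk, map_one]⟩
  · exact NB.iso ((MonoidHom.ofInjective hi).trans (Subgroup.subgroupOfEquivOfLe hle).symm) hH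

/-- `NB` of a central quotient gives `NB` -/
theorem nb_of_center {X : Type*} [Group X] [Finite X] (h : NB (X ⧸ center X)) : NB X :=
  NB.of_surjective (QuotientGroup.mk' (center X)) (QuotientGroup.mk'_surjective _)
    (by rw [QuotientGroup.ker_mk']) h

end Cfsg.Agent.H113.OB
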